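import Mathlib

/-!
Gaussian bounds on `ℤⁿ` and the Poisson summation formula for functions with Gaussian decay.
-/

set_option autoImplicit false

namespace CfsgLib.LatticeTheta

open MeasureTheory Complex

/-- The vector of real casts. -/
def castV {n : ℕ} (x : Fin n → ℤ) : Fin n → ℝ := fun i => (x i : ℝ)

lemma castV_add {n : ℕ} (x y : Fin n → ℤ) : castV (x + y) = castV x + castV y := by
  funext i; simp [castV]

/-- The sum of squares. -/
def sqs {n : ℕ} (x : Fin n → ℝ) : ℝ := ∑ i, x i ^ 2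

lemma summable_exp_sq {a : ℝ} (ha : 0 < a) : Summable fun k : ℤ => Real.exp (-a * (k : ℝ) ^ 2) := by
  have h : Summable fun k : ℕ => Real.exp (-a * (k : ℝ) ^ 2) := by
    refine Summable.of_nonneg_of_le (fun k => (Real.exp_pos _).le) (fun k => ?_)
      (Real.summable_exp_nat_mul_iff.mpr (neg_neg_of_pos ha) :
        Summable fun k : ℕ => Real.exp (k * (-a)))
    apply Real.exp_le_exp.mpr
    have : (k : ℝ) ≤ (k : ℝ) ^ 2 := by
      rcases Nat.eq_zero_or_pos k with rfl | hk
      · simp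
      · have : (1 : ℝ) ≤ k := by exact_mod_cast hk
        nlinarith
    nlinarith
  refine Summable.of_nat_of_neg (by simpa using h) ?_
  simpa using h

lemma summable_exp_sqs (n : ℕ) {a : ℝ} (ha : 0 < a) :
    Summable fun x : Fin n → ℤ => Real.exp (-a * sqs (castV x)) := by
  induction n with
  | zero => exact Summable.of_finite
  | succ n ih =>
    have h := (summable_exp_sq ha).mul_of_nonneg ih (fun k => (Real.exp_pos _).le)
      (fun k => (Real.exp_pos _).le)
    rw [← (Fin.consEquiv fun _ => ℤ).summable_iff]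
    refine h.congr fun p => ?_
    simp [Fin.consEquiv, sqs, castV, Fin.sum_univ_succ, ← Real.exp_add, mul_add]

/-- The unit box with lower corner at an integer point. -/
def ubox {n : ℕ} (k : Fin n → ℤ) : Set (Fin n → ℝ) :=
  {x | ∀ i, x i ∈ Set.Ioc (k i : ℝ) (k i + 1)}

lemma mem_ubox_iff {n : ℕ} (k : Fin n → ℤ) (x : Fin n → ℝ) :
    x ∈ ubox k ↔ ∀ i, k i = ⌈x i⌉ - 1 := by
  simp only [ubox, Set.mem_setOf_eq, Set.mem_Ioc]
  refine forall_congr' fun i => ⟨fun h => ?_, fun h => ?_⟩
  · have : ⌈x i⌉ = k i + 1 := Int.ceil_eq_iff.mpr ⟨by push_cast; linarith [h.1], by push_cast; exact h.2⟩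
    omega
  · have h' : ⌈x i⌉ = k i + 1 := by omega
    have := Int.ceil_eq_iff.mp h'
    push_cast at this
    constructor <;> linarith [this.1, this.2]

lemma measurableSet_ubox {n : ℕ} (k : Fin n → ℤ) : MeasurableSet (ubox k) := by
  have : ubox k = Set.univ.pi fun i => Set.Ioc (k i : ℝ) (k i + 1) := by
    ext x; simp only [ubox, Set.mem_setOf_eq, Set.mem_univ_pi]
  rw [this]
  exact MeasurableSet.univ_pi fun i => measurableSet_Ioc

lemma disjoint_ubox {n : ℕ} : Pairwise (Function.onFun Disjoint (ubox (n := n))) := by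
  intro k l hkl
  refine Set.disjoint_left.mpr fun x hk hl => hkl ?_
  funext i
  rw [(mem_ubox_iff k x).mp hk i, (mem_ubox_iff l x).mp hl i]

lemma iUnion_ubox {n : ℕ} : (⋃ k, ubox (n := n) k) = Set.univ :=
  Set.eq_univ_of_forall fun x => Set.mem_iUnion.mpr ⟨fun i => ⌈x i⌉ - 1, (mem_ubox_iff _ x).mpr fun _ => rfl⟩

lemma sqs_shift {n : ℕ} (x y : Fin n → ℝ) : sqs y / 2 - sqs x ≤ sqs (x + y) := by
  simp only [sqs, Finset.sum_div, ← Finset.sum_sub_distrib, Pi.add_apply]
  exact Finset.sum_le_sum fun i _ => by nlinarith [sq_nonneg (x i * 2 + y i)]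

lemma integrable_of_gauss {n : ℕ} {a : ℝ} (ha : 0 < a) {f : (Fin n → ℝ) → ℂ} (hf : Continuous f)
    (hbd : ∀ x, ‖f x‖ ≤ Real.exp (-a * sqs x)) : Integrable f := by
  have h : Integrable fun x : Fin n → ℝ => ∏ i, Real.exp (-a * x i ^ 2) :=
    Integrable.fintype_prod (μ := fun _ => volume) fun i => integrable_exp_neg_mul_sq ha
  refine h.mono' hf.aestronglyMeasurable (Filter.Eventually.of_forall fun x => ?_)
  rw [← Real.exp_sum, ← Finset.mul_sum]
  exact hbd x

/-- The periodization of `f`. -/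
noncomputable def per {n : ℕ} (f : (Fin n → ℝ) → ℂ) (x : Fin n → ℝ) : ℂ := ∑' k, f (x + castV k)

lemma per_continuous {n : ℕ} {a : ℝ} (ha : 0 < a) {f : (Fin n → ℝ) → ℂ} (hf : Continuous f)
    (hbd : ∀ x, ‖f x‖ ≤ Real.exp (-a * sqs x)) : Continuous (per f) := by
  refine continuous_iff_continuousAt.mpr fun x₀ => ?_
  have hsq : Continuous (sqs : (Fin n → ℝ) → ℝ) := by unfold sqs; fun_prop
  set U := {x : Fin n → ℝ | sqs x < sqs x₀ + 1}
  have hU : IsOpen U := isOpen_lt hsq continuous_const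
  have h : ContinuousOn (per f) U := by
    refine continuousOn_tsum (fun k => (hf.comp (continuous_id.add continuous_const)).continuousOn)
      ((summable_exp_sqs n (half_pos ha)).mul_left (Real.exp (a * (sqs x₀ + 1)))) fun k x hx => ?_
    refine (hbd _).trans ?_
    rw [← Real.exp_add]
    apply Real.exp_le_exp.mpr
    have h1 := sqs_shift x (castV k)
    have h2 : sqs x < sqs x₀ + 1 := hx
    nlinarith [mul_le_mul_of_nonneg_left h1 ha.le, mul_lt_mul_of_pos_left h2 ha]
  exact h.continuousAt (hU.mem_nhds (by simp [U]))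

lemma per_periodic {n : ℕ} (f : (Fin n → ℝ) → ℂ) (x : Fin n → ℝ) (l : Fin n → ℤ) :
    per f (x + castV l) = per f x := by
  rw [per, per, ← (Equiv.addLeft l).tsum_eq fun k => f (x + castV k)]
  simp only [Equiv.coe_addLeft, castV_add, add_assoc]

/-- The Fourier integral at an integer frequency. -/
noncomputable def fint {n : ℕ} (f : (Fin n → ℝ) → ℂ) (m : Fin n → ℤ) : ℂ :=
  ∫ x : Fin n → ℝ, cexp (-2 * Real.pi * I * ∑ i, (m i : ℂ) * x i) * f x

lemma norm_char {n : ℕ} (m : Fin n → ℤ) (x : Fin n → ℝ) :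
    ‖cexp (-2 * Real.pi * I * ∑ i, (m i : ℂ) * x i)‖ = 1 := by
  rw [norm_exp]; simp [mul_re, mul_im, re_sum, im_sum]

lemma char_periodic {n : ℕ} (m : Fin n → ℤ) (x : Fin n → ℝ) (k : Fin n → ℤ) :
    cexp (-2 * Real.pi * I * ∑ i, (m i : ℂ) * ((x + castV k) i : ℝ)) =
      cexp (-2 * Real.pi * I * ∑ i, (m i : ℂ) * x i) := by
  rw [exp_eq_exp_iff_exists_int]
  refine ⟨-∑ i, m i * k i, ?_⟩
  simp [castV, mul_add, Finset.sum_add_distrib, Finset.mul_sum, Finset.sum_mul]
  ring_nf

lemma integral_ubox_per {n : ℕ} {a : ℝ} (ha : 0 < a) {f : (Fin n → ℝ) → ℂ} (hf : Continuous f)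
    (hbd : ∀ x, ‖f x‖ ≤ Real.exp (-a * sqs x)) (m : Fin n → ℤ) :
    ∫ x in ubox 0, cexp (-2 * Real.pi * I * ∑ i, (m i : ℂ) * x i) * per f x = fint f m := by
  set g : (Fin n → ℝ) → ℂ := fun x => cexp (-2 * Real.pi * I * ∑ i, (m i : ℂ) * x i) * f x with hg
  have hgc : Continuous g := by rw [hg]; fun_prop
  have hgb : ∀ x, ‖g x‖ ≤ Real.exp (-a * sqs x) := fun x => by
    rw [hg]; simp only [norm_mul, norm_char, one_mul]; exact hbd x
  have hgi : Integrable g := integrable_of_gauss ha hgc hgb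
  have hmp : ∀ k : Fin n → ℤ, MeasurePreserving (fun x : Fin n → ℝ => x + castV k) volume volume :=
    fun k => measurePreserving_add_right volume (castV k)
  have hemb : ∀ k : Fin n → ℤ, MeasurableEmbedding (fun x : Fin n → ℝ => x + castV k) :=
    fun k => (Homeomorph.addRight (castV k)).measurableEmbedding
  have hpre : ∀ k : Fin n → ℤ, (fun x : Fin n → ℝ => x + castV k) ⁻¹' ubox k = ubox 0 := fun k => by
    ext x
    simp only [ubox, Set.mem_preimage, Set.mem_setOf_eq, Set.mem_Ioc, Pi.add_apply, castV, Pi.zero_apply,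
      Int.cast_zero, zero_add]
    refine forall_congr' fun i => ⟨fun h => ⟨by linarith [h.1], by linarith [h.2]⟩,
      fun h => ⟨by linarith [h.1], by linarith [h.2]⟩⟩
  have hshift : ∀ (F : (Fin n → ℝ) → ℂ) (k : Fin n → ℤ),
      ∫ x in ubox 0, F (x + castV k) = ∫ x in ubox k, F x := fun F k => by
    rw [← hpre k]; exact (hmp k).setIntegral_preimage_emb (hemb k) F _
  have hnorm : ∀ (k : Fin n → ℤ),
      ∫ x in ubox 0, ‖g (x + castV k)‖ = ∫ x in ubox k, ‖g x‖ := fun k => by
    rw [← hpre k]; exact (hmp k).setIntegral_preimage_emb (hemb k) (fun x => ‖g x‖) _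
  have hsum : HasSum (fun k => ∫ x in ubox k, g x) (∫ x, g x) := by
    have := hasSum_integral_iUnion (f := g) (fun k => measurableSet_ubox k) disjoint_ubox hgi.integrableOn
    rwa [iUnion_ubox, Measure.restrict_univ] at this
  have hsumn : Summable fun k => ∫ x in ubox k, ‖g x‖ :=
    (hasSum_integral_iUnion (f := fun x => ‖g x‖) (fun k => measurableSet_ubox k) disjoint_ubox
      hgi.norm.integrableOn).summable
  rw [fint, ← hsum.tsum_eq]
  calc ∫ x in ubox 0, cexp (-2 * Real.pi * I * ∑ i, (m i : ℂ) * x i) * per f x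
      = ∫ x in ubox 0, ∑' k, g (x + castV k) := by
        refine setIntegral_congr_fun (measurableSet_ubox _) fun x _ => ?_
        simp only [hg, per, char_periodic, tsum_mul_left]
    _ = ∑' k, ∫ x in ubox 0, g (x + castV k) := by
        refine (integral_tsum_of_summable_integral_norm (fun k => ?_) ?_).symm
        · exact (((hmp k).integrable_comp_emb (hemb k)).mpr hgi).integrableOn
        · simp_rw [hnorm]; exact hsumn
    _ = _ := tsum_congr fun k => hshift g k

/-- Poisson summation. -/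
theorem poisson {n : ℕ} {a : ℝ} (ha : 0 < a) {f : (Fin n → ℝ) → ℂ} (hf : Continuous f)
    (hbd : ∀ x, ‖f x‖ ≤ Real.exp (-a * sqs x)) (hs : Summable (fint f)) :
    ∑' k, f (castV k) = ∑' m, fint f m := by
  let π : (Fin n → ℝ) → UnitAddTorus (Fin n) := fun x i => (x i : UnitAddCircle)
  have hπ : IsOpenQuotientMap π :=
    IsOpenQuotientMap.piMap fun _ => QuotientAddGroup.isOpenQuotientMap_mk
  let F₀ : UnitAddTorus (Fin n) → ℂ :=
    fun θ => per f fun i => (AddCircle.equivIco 1 0 (θ i) : ℝ)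
  have hF : ∀ x, F₀ (π x) = per f x := fun x => by
    have : (fun i => ((AddCircle.equivIco 1 0 (π x i)) : ℝ)) =
        x + castV fun i => -toIcoDiv one_pos 0 (x i) := by
      funext i
      have : ((AddCircle.equivIco 1 0 (π x i)) : ℝ) = toIcoMod one_pos 0 (x i) := rfl
      rw [this]
      simp only [toIcoMod, Pi.add_apply, castV, zsmul_eq_mul, mul_one, Int.cast_neg]
      ring
    simp only [F₀, this, per_periodic]
  have hFc : Continuous F₀ := by
    rw [← hπ.continuous_comp_iff]
    exact (per_continuous ha hf hbd).congr fun x => (hF x).symm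
  let F : C(UnitAddTorus (Fin n), ℂ) := ⟨F₀, hFc⟩
  have hcoef : ∀ m, UnitAddTorus.mFourierCoeff (F : UnitAddTorus (Fin n) → ℂ) m = fint f m := fun m => by
    rw [UnitAddTorus.mFourierCoeff_eq_integral _ m 0, ← integral_ubox_per ha hf hbd m]
    have hbox : {x : Fin n → ℝ | ∀ i, x i ∈ Set.Ioc ((0 : Fin n → ℝ) i) ((0 : Fin n → ℝ) i + 1)} = ubox 0 := by
      ext x; simp [ubox]
    rw [hbox]
    refine setIntegral_congr_fun (measurableSet_ubox _) fun x _ => ?_
    have hFx : F (fun i => (x i : UnitAddCircle)) = per f x := hF x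
    simp only [smul_eq_mul, hFx]
    congr 1
    show ∏ i, fourier ((-m) i) (x i : UnitAddCircle) = _
    simp only [fourier_coe_apply, ← Complex.exp_sum]
    congr 1
    rw [Finset.mul_sum]
    exact Finset.sum_congr rfl fun i _ => by simp only [Pi.neg_apply]; push_cast; ring
  have hS : Summable (UnitAddTorus.mFourierCoeff (F : UnitAddTorus (Fin n) → ℂ)) := hs.congr fun m => (hcoef m).symm
  have h := UnitAddTorus.hasSum_mFourier_series_apply_of_summable hS (π 0)
  have h1 : ∀ m, UnitAddTorus.mFourier m (π 0) = 1 := fun m => by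
    show ∏ i, fourier (m i) ((0 : ℝ) : UnitAddCircle) = 1
    simp [fourier_eval_zero]
  have h2 : F (π 0) = ∑' k, f (castV k) := by
    show F₀ (π 0) = _
    rw [hF]; simp [per]
  rw [← h2, ← h.tsum_eq]
  exact tsum_congr fun m => by rw [h1, hcoef, smul_eq_mul, mul_one]

end CfsgLib.LatticeTheta
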