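import Cfsg.Agent.LatticeTheta.Quad

/-!
Vector counts of even unimodular lattices of rank 24 from the modular form of weight twelve.
-/

set_option autoImplicit false

namespace CfsgLib.LatticeTheta

open Complex Matrix ModularForm UpperHalfPlane EisensteinSeries
open scoped MatrixGroups

variable {B : Matrix (Fin 24) (Fin 24) ℤ}

/-- The half norm of a vector. -/
def halfNorm (B : Matrix (Fin 24) (Fin 24) ℤ) (x : Fin 24 → ℤ) : ℕ := ((x ⬝ᵥ (B *ᵥ x)) / 2).toNat

lemma form_eq_halfNorm (h : Unimodular B) (he : ∀ x : Fin 24 → ℤ, (2 : ℤ) ∣ x ⬝ᵥ (B *ᵥ x))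
    (x : Fin 24 → ℤ) : x ⬝ᵥ (B *ᵥ x) = 2 * (halfNorm B x : ℤ) := by
  obtain ⟨d, hd⟩ := he x
  have := form_nonneg h x
  rw [halfNorm, hd, Int.mul_ediv_cancel_left _ (by norm_num)]
  omega

lemma finite_halfNorm (h : Unimodular B) (he : ∀ x : Fin 24 → ℤ, (2 : ℤ) ∣ x ⬝ᵥ (B *ᵥ x)) (m : ℕ) :
    {x : Fin 24 → ℤ | halfNorm B x = m}.Finite := by
  have := (summable_bound h one_pos).tendsto_cofinite_zero
  have h2 := this.eventually (gt_mem_nhds (Real.exp_pos (-Real.pi * 1 * (2 * m))))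
  refine h2.subset fun x hx => ?_
  have hx' : halfNorm B x = m := hx
  show ¬ Real.exp (-Real.pi * 1 * ((x ⬝ᵥ (B *ᵥ x) : ℤ) : ℝ)) < _
  rw [form_eq_halfNorm h he x, hx']
  push_cast
  exact lt_irrefl _

/-- The number of vectors of given half norm. -/
noncomputable def count (B : Matrix (Fin 24) (Fin 24) ℤ) (m : ℕ) : ℕ :=
  {x : Fin 24 → ℤ | halfNorm B x = m}.ncard

lemma summable_term (h : Unimodular B) (τ : ℍ) :
    Summable fun x : Fin 24 → ℤ => cexp (Real.pi * Complex.I * (τ : ℂ) * ((x ⬝ᵥ (B *ᵥ x) : ℤ) : ℂ)) := by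
  apply Summable.of_norm
  refine Summable.congr (summable_bound h τ.im_pos) ?_
  intro x
  rw [norm_term]
  rfl

lemma hasSum_count (h : Unimodular B) (he : ∀ x : Fin 24 → ℤ, (2 : ℤ) ∣ x ⬝ᵥ (B *ᵥ x)) (τ : ℍ) :
    HasSum (fun m : ℕ => (count B m : ℂ) • Function.Periodic.qParam 1 (τ : ℂ) ^ m) (theta B τ) := by
  have hs : HasSum _ (theta B τ) := (summable_term h τ).hasSum
  refine HasSum.sigma ((Equiv.sigmaFiberEquiv (halfNorm B)).hasSum_iff.mpr hs) fun m => ?_
  haveI : Fintype {x : Fin 24 → ℤ // halfNorm B x = m} := (finite_halfNorm h he m).fintype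
  have hv : ∀ x : {x : Fin 24 → ℤ // halfNorm B x = m},
      cexp (Real.pi * Complex.I * (τ : ℂ) * (((x : Fin 24 → ℤ) ⬝ᵥ (B *ᵥ (x : Fin 24 → ℤ)) : ℤ) : ℂ)) =
        Function.Periodic.qParam 1 (τ : ℂ) ^ m := fun x => by
    rw [form_eq_halfNorm h he, x.2, Function.Periodic.qParam, ← Complex.exp_nat_mul]
    congr 1
    push_cast
    ring
  have := hasSum_fintype (fun x : {x : Fin 24 → ℤ // halfNorm B x = m} =>
    cexp (Real.pi * Complex.I * (τ : ℂ) * (((x : Fin 24 → ℤ) ⬝ᵥ (B *ᵥ (x : Fin 24 → ℤ)) : ℤ) : ℂ)))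
  convert this using 1
  · rfl
  have hc : count B m = Fintype.card {x : Fin 24 → ℤ // halfNorm B x = m} := by
    rw [count, ← Nat.card_coe_set_eq]
    exact Nat.card_eq_fintype_card (α := {x : Fin 24 → ℤ // halfNorm B x = m})
  rw [Finset.sum_congr rfl fun x _ => hv x, Finset.sum_const, Finset.card_univ, nsmul_eq_mul,
    smul_eq_mul, hc]

lemma theta_slash_T (he : ∀ x : Fin 24 → ℤ, (2 : ℤ) ∣ x ⬝ᵥ (B *ᵥ x)) :
    ((fun τ : ℍ => theta B τ) ∣[(12 : ℤ)] ModularGroup.T) = fun τ : ℍ => theta B τ := by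
  ext τ
  rw [SL_slash_apply, modular_T_smul]
  have hd : denom (ModularGroup.T : GL (Fin 2) ℝ) τ = 1 := by
    rw [ModularGroup.denom_apply]; simp [ModularGroup.T]
  rw [hd, _root_.one_zpow, mul_one]
  refine tsum_congr fun x => ?_
  obtain ⟨d, hd⟩ := he x
  rw [coe_vadd, hd, ofReal_one, mul_add, mul_one, add_mul, Complex.exp_add]
  convert one_mul _ using 2
  rw [show (Real.pi : ℂ) * Complex.I * ((2 * d : ℤ) : ℂ) = (d : ℂ) * (2 * Real.pi * Complex.I) by push_cast; ring]
  exact exp_int_mul_two_pi_mul_I d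

lemma theta_slash_S (h : Unimodular B) :
    ((fun τ : ℍ => theta B τ) ∣[(12 : ℤ)] ModularGroup.S) = fun τ : ℍ => theta B τ := by
  ext τ
  rw [SL_slash_apply, modular_S_smul]
  have hd : denom (ModularGroup.S : GL (Fin 2) ℝ) τ = (τ : ℂ) := by
    exact ModularGroup.denom_S τ
  rw [hd]
  show theta B (-(τ : ℂ))⁻¹ * _ = _
  rw [show (-(τ : ℂ))⁻¹ = -1 / (τ : ℂ) by rw [inv_neg, neg_div, one_div],
    theta_inv (k := 12) rfl h _ τ.im_pos, div_pow, show Complex.I ^ 12 = 1 by rw [pow_mul Complex.I 4 3, I_pow_four, one_pow],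
    div_one, _root_.zpow_neg, show ((τ : ℂ) ^ (12 : ℤ)) = (τ : ℂ) ^ (12 : ℕ) from rfl]
  field_simp [τ.ne_zero]

/-- The theta series as a modular form. -/
noncomputable def thetaForm (h : Unimodular B) (he : ∀ x : Fin 24 → ℤ, (2 : ℤ) ∣ x ⬝ᵥ (B *ᵥ x)) :
    ModularForm 𝒮ℒ 12 where
  toFun τ := theta B τ
  slash_action_eq' A hA := by
    obtain ⟨A, rfl⟩ := hA
    exact SlashInvariantForm.slash_action_generators_SL2Z (theta_slash_S h) (theta_slash_T he) A
  holo' := by
    rw [UpperHalfPlane.mdifferentiable_iff]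
    refine (differentiableOn_theta h).congr fun z hz => ?_
    simp [ofComplex_apply_of_im_pos hz]
  bdd_at_cusps' hc := by
    rw [Subgroup.IsArithmetic.isCusp_iff_isCusp_SL2Z] at hc
    rw [OnePoint.isBoundedAt_iff_forall_SL2Z hc]
    intro γ _
    rw [SlashInvariantForm.slash_action_generators_SL2Z (theta_slash_S h) (theta_slash_T he)]
    rw [isBoundedAtImInfty_iff]
    refine ⟨∑' x : Fin 24 → ℤ, Real.exp (-Real.pi * 1 * ((x ⬝ᵥ (B *ᵥ x) : ℤ) : ℝ)), 1, fun τ hτ => ?_⟩
    refine tsum_of_norm_bounded (summable_bound h one_pos).hasSum fun x => ?_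
    rw [norm_term]
    apply Real.exp_le_exp.mpr
    have hq : (0 : ℝ) ≤ ((x ⬝ᵥ (B *ᵥ x) : ℤ) : ℝ) := by exact_mod_cast form_nonneg h x
    have hτ' : (1 : ℝ) ≤ (τ : ℂ).im := hτ
    nlinarith [mul_le_mul_of_nonneg_left (mul_le_mul_of_nonneg_right hτ' hq) Real.pi_pos.le]

lemma coeff_thetaForm (h : Unimodular B) (he : ∀ x : Fin 24 → ℤ, (2 : ℤ) ∣ x ⬝ᵥ (B *ᵥ x)) (m : ℕ) :
    (qExpansion 1 (thetaForm h he)).coeff m = (count B m : ℂ) :=
  (ModularFormClass.qExpansion_coeff_unique one_pos one_mem_strictPeriods_SL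
    (f := thetaForm h he) (fun τ => hasSum_count h he τ) m).symm

/-- The comparison form. -/
noncomputable def refForm : ModularForm 𝒮ℒ 12 :=
  (7 / 12 : ℂ) • ModularForm.mcast (by decide) (E₄.pow 3) +
    (5 / 12 : ℂ) • ModularForm.mcast (by decide) (E₆.pow 2)

lemma coeff_refForm :
    (qExpansion 1 refForm).coeff 0 = 1 ∧ (qExpansion 1 refForm).coeff 1 = 0 ∧
    (qExpansion 1 refForm).coeff 2 = 196560 ∧ (qExpansion 1 refForm).coeff 3 = 16773120 ∧
    (qExpansion 1 refForm).coeff 4 = 398034000 := by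
  have hq : qExpansion 1 refForm = (7 / 12 : ℂ) • (qExpansion 1 E₄) ^ 3 + (5 / 12 : ℂ) • (qExpansion 1 E₆) ^ 2 := by
    rw [refForm, FunLike.coe_add, ModularForm.qExpansion_add one_pos one_mem_strictPeriods_SL,
      FunLike.coe_smul, FunLike.coe_smul, ModularForm.qExpansion_smul one_pos one_mem_strictPeriods_SL,
      ModularForm.qExpansion_smul one_pos one_mem_strictPeriods_SL, coe_mcast, coe_mcast,
      ModularForm.qExpansion_pow one_pos one_mem_strictPeriods_SL,
      ModularForm.qExpansion_pow one_pos one_mem_strictPeriods_SL]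
  have e4 : ∀ m, (qExpansion 1 E₄).coeff m = if m = 0 then 1 else 240 * (ArithmeticFunction.sigma 3 m : ℂ) := fun m => by
    rw [E_qExpansion_coeff _ ⟨2, rfl⟩]; norm_num [show bernoulli 4 = -1 / 30 by decide +kernel]
  have e6 : ∀ m, (qExpansion 1 E₆).coeff m = if m = 0 then 1 else -504 * (ArithmeticFunction.sigma 5 m : ℂ) := fun m => by
    rw [E_qExpansion_coeff _ ⟨3, rfl⟩]; norm_num [show bernoulli 6 = 1 / 42 by decide +kernel]
  have s31 : ArithmeticFunction.sigma 3 1 = 1 := by decide +kernel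
  have s32 : ArithmeticFunction.sigma 3 2 = 9 := by decide +kernel
  have s33 : ArithmeticFunction.sigma 3 3 = 28 := by decide +kernel
  have s34 : ArithmeticFunction.sigma 3 4 = 73 := by decide +kernel
  have s51 : ArithmeticFunction.sigma 5 1 = 1 := by decide +kernel
  have s52 : ArithmeticFunction.sigma 5 2 = 33 := by decide +kernel
  have s53 : ArithmeticFunction.sigma 5 3 = 244 := by decide +kernel
  have s54 : ArithmeticFunction.sigma 5 4 = 1057 := by decide +kernel
  refine ⟨?_, ?_, ?_, ?_, ?_⟩ <;>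
    (rw [hq, map_add, map_smul, map_smul, pow_succ, pow_succ, pow_succ, pow_succ, pow_zero]
     norm_num [PowerSeries.coeff_mul, Finset.Nat.antidiagonal_succ, e4, e6, s31, s32, s33, s34, s51, s52,
       s53, s54, -PowerSeries.coeff_zero_eq_constantCoeff])

/-- The vector counts. -/
theorem counts (h : Unimodular B) (he : ∀ x : Fin 24 → ℤ, (2 : ℤ) ∣ x ⬝ᵥ (B *ᵥ x))
    (h2 : ∀ x : Fin 24 → ℤ, x ⬝ᵥ (B *ᵥ x) ≠ 2) :
    count B 2 = 196560 ∧ count B 3 = 16773120 ∧ count B 4 = 398034000 := by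
  obtain ⟨r0, r1, r2, r3, r4⟩ := coeff_refForm
  have c0 : count B 0 = 1 := by
    have : {x : Fin 24 → ℤ | halfNorm B x = 0} = {0} := by
      ext x
      simp only [Set.mem_setOf_eq, Set.mem_singleton_iff]
      refine ⟨fun hx => ?_, fun hx => by subst hx; simp [halfNorm]⟩
      by_contra hne
      have := h.pos x hne
      rw [form_eq_halfNorm h he x, hx] at this
      simp at this
    rw [count, this, Set.ncard_singleton]
  have c1 : count B 1 = 0 := by
    have : {x : Fin 24 → ℤ | halfNorm B x = 1} = ∅ := by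
      ext x
      simp only [Set.mem_setOf_eq, Set.mem_empty_iff_false, iff_false]
      intro hx
      exact h2 x (by rw [form_eq_halfNorm h he x, hx]; norm_num)
    rw [count, this, Set.ncard_empty]
  have hq : ∀ m, (qExpansion 1 ⇑(thetaForm h he - refForm)).coeff m =
      (count B m : ℂ) - (qExpansion 1 refForm).coeff m := fun m => by
    rw [FunLike.coe_sub, ModularForm.qExpansion_sub one_pos one_mem_strictPeriods_SL, map_sub, coeff_thetaForm]
  have hz : thetaForm h he - refForm = 0 := by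
    refine sturm_bound_levelOne ?_
    refine lt_of_lt_of_le ?_ (PowerSeries.nat_le_order _ 2 fun i hi => ?_)
    · exact Nat.cast_lt.mpr (by decide)
    · rw [hq]
      interval_cases i
      · rw [c0, r0]; simp
      · rw [c1, r1]; simp
  have hm : ∀ m, (count B m : ℂ) = (qExpansion 1 refForm).coeff m := fun m => by
    rw [← coeff_thetaForm h he, sub_eq_zero.mp hz]
  refine ⟨?_, ?_, ?_⟩
  · exact_mod_cast (hm 2).trans r2
  · exact_mod_cast (hm 3).trans r3
  · exact_mod_cast (hm 4).trans r4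

end CfsgLib.LatticeTheta
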