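import Cfsg.Agent.LatticeTheta.Gauss

/-!
The theta series of a positive definite unimodular integral form and its behaviour under inversion.
-/

set_option autoImplicit false

namespace CfsgLib.LatticeTheta

open MeasureTheory Complex Matrix
open scoped MatrixOrder

variable {n : ℕ}

/-- Hypotheses on the form. -/
structure Unimodular (B : Matrix (Fin n) (Fin n) ℤ) : Prop where
  symm : B.IsSymm
  pos : ∀ x : Fin n → ℤ, x ≠ 0 → 0 < x ⬝ᵥ (B *ᵥ x)
  det : B.det = 1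

/-- The real matrix. -/
def realM (B : Matrix (Fin n) (Fin n) ℤ) : Matrix (Fin n) (Fin n) ℝ :=
  B.map (Int.cast : ℤ → ℝ)

lemma castV_mulVec (B : Matrix (Fin n) (Fin n) ℤ) (x : Fin n → ℤ) :
    castV (B *ᵥ x) = realM B *ᵥ castV x := by
  funext i; simp [castV, realM, mulVec, dotProduct]

lemma castV_form (B : Matrix (Fin n) (Fin n) ℤ) (x : Fin n → ℤ) :
    ((x ⬝ᵥ (B *ᵥ x) : ℤ) : ℝ) = castV x ⬝ᵥ (realM B *ᵥ castV x) := by
  simp [castV, realM, mulVec, dotProduct]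

lemma realM_posDef {B : Matrix (Fin n) (Fin n) ℤ} (h : Unimodular B) : (realM B).PosDef := by
  have hH : (realM B).IsHermitian := by
    rw [Matrix.IsHermitian, conjTranspose_eq_transpose_of_trivial, realM, ← transpose_map, h.symm.eq]
  have hsemi : (realM B).PosSemidef := by
    refine posSemidef_iff_dotProduct_mulVec.mpr ⟨hH, fun x => ?_⟩
    rw [star_trivial]
    set q : (Fin n → ℝ) → ℝ := fun y => y ⬝ᵥ (realM B *ᵥ y) with hq
    have hqc : Continuous q := by rw [hq]; fun_prop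
    have hu : Filter.Tendsto (fun N : ℕ => fun i => (⌊(N : ℝ) * x i⌋ : ℝ) / N) Filter.atTop (nhds x) := by
      refine tendsto_pi_nhds.mpr fun i => ?_
      have hl : Filter.Tendsto (fun N : ℕ => x i - 1 / (N : ℝ)) Filter.atTop (nhds (x i)) := by
        simpa using (tendsto_const_nhds (x := x i)).sub (tendsto_const_div_atTop_nhds_zero_nat (1 : ℝ))
      refine tendsto_of_tendsto_of_tendsto_of_le_of_le' hl tendsto_const_nhds ?_ ?_
      · filter_upwards [Filter.eventually_gt_atTop 0] with N hN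
        have hN' : (0 : ℝ) < N := by exact_mod_cast hN
        rw [le_div_iff₀ hN', sub_mul, one_div_mul_cancel hN'.ne']
        linarith [Int.sub_one_lt_floor ((N : ℝ) * x i)]
      · filter_upwards [Filter.eventually_gt_atTop 0] with N hN
        have hN' : (0 : ℝ) < N := by exact_mod_cast hN
        rw [div_le_iff₀ hN']
        linarith [Int.floor_le ((N : ℝ) * x i)]
    refine ge_of_tendsto ((hqc.tendsto x).comp hu) (Filter.Eventually.of_forall fun N => ?_)
    simp only [Function.comp, hq]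
    have : (fun i => (⌊(N : ℝ) * x i⌋ : ℝ) / N) = (N : ℝ)⁻¹ • castV fun i => ⌊(N : ℝ) * x i⌋ := by
      funext i; simp [castV, div_eq_inv_mul]
    rw [this, mulVec_smul, smul_dotProduct, dotProduct_smul, ← castV_form, smul_eq_mul, smul_eq_mul]
    refine mul_nonneg (by positivity) (mul_nonneg (by positivity) ?_)
    rcases eq_or_ne (fun i => ⌊(N : ℝ) * x i⌋) 0 with h0 | h0
    · rw [h0]; simp
    · exact_mod_cast (h.pos _ h0).le
  rw [hsemi.posDef_iff_det_ne_zero]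
  have : (realM B).det = 1 := by
    rw [realM, show B.map (Int.cast : ℤ → ℝ) = (Int.castRingHom ℝ).mapMatrix B from rfl,
      ← RingHom.map_det, h.det, map_one]
  rw [this]; norm_num

/-- A symmetric invertible square root. -/
lemma exists_root {B : Matrix (Fin n) (Fin n) ℤ} (h : Unimodular B) :
    ∃ R : Matrix (Fin n) (Fin n) ℝ, Rᵀ = R ∧ R * R = realM B ∧ R.det ≠ 0 := by
  have hp := realM_posDef h
  refine ⟨CFC.sqrt (realM B), ?_, CFC.sqrt_mul_sqrt_self _ hp.posSemidef.nonneg, fun h0 => ?_⟩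
  · exact (conjTranspose_eq_transpose_of_trivial _).symm.trans (CFC.sqrt_nonneg (realM B)).posSemidef.1
  · have := congrArg Matrix.det (CFC.sqrt_mul_sqrt_self (realM B) hp.posSemidef.nonneg)
    rw [det_mul, h0, mul_zero] at this
    exact hp.det_pos.ne' this.symm

lemma form_eq_sqs {B : Matrix (Fin n) (Fin n) ℤ} {R : Matrix (Fin n) (Fin n) ℝ} (hs : Rᵀ = R)
    (hR : R * R = realM B) (x : Fin n → ℤ) :
    ((x ⬝ᵥ (B *ᵥ x) : ℤ) : ℝ) = sqs (R *ᵥ castV x) := by
  rw [castV_form, ← hR, ← mulVec_mulVec, dotProduct_mulVec, ← hs, vecMul_transpose, hs]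
  simp [sqs, dotProduct, sq]

lemma sqs_lower {R : Matrix (Fin n) (Fin n) ℝ} (hd : R.det ≠ 0) :
    ∃ c : ℝ, 0 < c ∧ ∀ x, c * sqs x ≤ sqs (R *ᵥ x) := by
  set K := (∑ i, ∑ j, R⁻¹ i j ^ 2) + 1 with hK
  have hK0 : 0 < K := by positivity
  refine ⟨1 / K, by positivity, fun x => ?_⟩
  have hx : R⁻¹ *ᵥ (R *ᵥ x) = x := by
    rw [mulVec_mulVec, nonsing_inv_mul R (Ne.isUnit hd), one_mulVec]
  have h1 : sqs x ≤ (∑ i, ∑ j, R⁻¹ i j ^ 2) * sqs (R *ᵥ x) := by
    conv_lhs => rw [← hx]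
    simp only [sqs, Finset.sum_mul, mulVec, dotProduct]
    exact Finset.sum_le_sum fun i _ =>
      (Finset.sum_mul_sq_le_sq_mul_sq _ _ _).trans_eq (Finset.sum_mul _ _ _)
  have h2 : (0 : ℝ) ≤ sqs (R *ᵥ x) := Finset.sum_nonneg fun i _ => sq_nonneg _
  rw [div_mul_eq_mul_div, one_mul, div_le_iff₀ hK0]
  nlinarith

/-- The theta series. -/
noncomputable def theta (B : Matrix (Fin n) (Fin n) ℤ) (τ : ℂ) : ℂ :=
  ∑' x : Fin n → ℤ, cexp (Real.pi * I * τ * ((x ⬝ᵥ (B *ᵥ x) : ℤ) : ℂ))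

lemma norm_term (B : Matrix (Fin n) (Fin n) ℤ) (τ : ℂ) (x : Fin n → ℤ) :
    ‖cexp (Real.pi * I * τ * ((x ⬝ᵥ (B *ᵥ x) : ℤ) : ℂ))‖ =
      Real.exp (-Real.pi * τ.im * ((x ⬝ᵥ (B *ᵥ x) : ℤ) : ℝ)) := by
  rw [norm_exp]; congr 1; simp [mul_re, mul_im]

lemma summable_bound {B : Matrix (Fin n) (Fin n) ℤ} (h : Unimodular B) {δ : ℝ} (hδ : 0 < δ) :
    Summable fun x : Fin n → ℤ => Real.exp (-Real.pi * δ * ((x ⬝ᵥ (B *ᵥ x) : ℤ) : ℝ)) := by
  obtain ⟨R, hs, hR, hd⟩ := exists_root h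
  obtain ⟨c, hc, hb⟩ := sqs_lower hd
  refine Summable.of_nonneg_of_le (fun x => (Real.exp_pos _).le) (fun x => ?_)
    (summable_exp_sqs n (mul_pos (mul_pos Real.pi_pos hδ) hc))
  apply Real.exp_le_exp.mpr
  rw [form_eq_sqs hs hR]
  nlinarith [mul_le_mul_of_nonneg_left (hb (castV x)) (mul_pos Real.pi_pos hδ).le]

lemma form_nonneg {B : Matrix (Fin n) (Fin n) ℤ} (h : Unimodular B) (x : Fin n → ℤ) :
    0 ≤ x ⬝ᵥ (B *ᵥ x) := by
  rcases eq_or_ne x 0 with rfl | hx
  · simp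
  · exact (h.pos x hx).le

lemma differentiableOn_theta {B : Matrix (Fin n) (Fin n) ℤ} (h : Unimodular B) :
    DifferentiableOn ℂ (theta B) {τ : ℂ | 0 < τ.im} := by
  intro τ hτ
  have hτ' : 0 < τ.im := hτ
  have hU : IsOpen {z : ℂ | τ.im / 2 < z.im} := isOpen_lt continuous_const Complex.continuous_im
  have hd : DifferentiableOn ℂ (theta B) {z : ℂ | τ.im / 2 < z.im} := by
    refine differentiableOn_tsum_of_summable_norm (summable_bound h (half_pos hτ'))
      (fun x => (Differentiable.differentiableOn (by fun_prop))) hU fun x z hz => ?_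
    rw [norm_term]
    apply Real.exp_le_exp.mpr
    have hq : (0 : ℝ) ≤ ((x ⬝ᵥ (B *ᵥ x) : ℤ) : ℝ) := by exact_mod_cast form_nonneg h x
    have hz' : τ.im / 2 ≤ z.im := le_of_lt hz
    nlinarith [mul_le_mul_of_nonneg_right hz' hq, Real.pi_pos, mul_le_mul_of_nonneg_left
      (mul_le_mul_of_nonneg_right hz' hq) Real.pi_pos.le]
  exact ((hd.differentiableAt (hU.mem_nhds (by simp only [Set.mem_setOf_eq]; linarith)))).differentiableWithinAt

lemma theta_pos_axis {B : Matrix (Fin n) (Fin n) ℤ} (h : Unimodular B) {t : ℝ} (ht : 0 < t) :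
    theta B (t * I) = ((∑' x : Fin n → ℤ, Real.exp (-Real.pi * t * ((x ⬝ᵥ (B *ᵥ x) : ℤ) : ℝ))) : ℝ) ∧
    0 < ∑' x : Fin n → ℤ, Real.exp (-Real.pi * t * ((x ⬝ᵥ (B *ᵥ x) : ℤ) : ℝ)) := by
  refine ⟨?_, (summable_bound h ht).tsum_pos (fun x => (Real.exp_pos _).le) 0 (Real.exp_pos _)⟩
  rw [ofReal_tsum, theta]
  refine tsum_congr fun x => ?_
  rw [ofReal_exp]; congr 1; push_cast
  linear_combination ((Real.pi : ℂ) * t * ((x ⬝ᵥ (B *ᵥ x) : ℤ) : ℂ)) * I_sq

/-- The Fourier transform of the Gaussian of the form. -/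
lemma fint_gauss {k : ℕ} (hn : n = 2 * k) {B : Matrix (Fin n) (Fin n) ℤ} {R P : Matrix (Fin n) (Fin n) ℝ}
    (hs : Rᵀ = R) (hR : R * R = realM B) (hRP : R * P = 1) (hPR : P * R = 1) (hPd : P.det ≠ 0) (hPs : Pᵀ = P)
    {t : ℝ} (ht : 0 < t) (y : Fin n → ℤ) :
    fint (fun x => cexp ((-Real.pi * t * sqs (R *ᵥ x) : ℝ) : ℂ)) (B *ᵥ y) =
      ((|P.det| : ℝ) : ℂ) * (1 / (t : ℂ)) ^ k *
        cexp (Real.pi * I * ((1 / t : ℝ) * I) * ((y ⬝ᵥ (B *ᵥ y) : ℤ) : ℂ)) := by
  classical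
  set f : (Fin n → ℝ) → ℂ := fun x => cexp ((-Real.pi * t * sqs (R *ᵥ x) : ℝ) : ℂ) with hf
  have hfc : Continuous f := by simp only [hf, sqs]; fun_prop
  set g : (Fin n → ℝ) → ℂ :=
    fun x => cexp (-2 * Real.pi * I * ∑ i, (((B *ᵥ y) i : ℤ) : ℂ) * x i) * f x with hg
  have hgc : Continuous g := by rw [hg]; fun_prop
  have hmap := Real.map_matrix_volume_pi_eq_smul_volume_pi (M := P) hPd
  have h1 : ∫ x, g x = ((|P.det| : ℝ) : ℂ) * ∫ v, g (P *ᵥ v) := by
    have hm : ∫ v, g (P *ᵥ v) = ∫ x, g x ∂(Measure.map (Matrix.toLin' P) volume) := by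
      rw [integral_map (LinearMap.continuous_on_pi _).aemeasurable hgc.aestronglyMeasurable]
      rfl
    rw [hm, hmap, integral_smul_measure, ENNReal.toReal_ofReal (abs_nonneg _), abs_inv,
      Complex.real_smul, ← mul_assoc, ← ofReal_mul, mul_inv_cancel₀ (abs_ne_zero.mpr hPd), ofReal_one,
      one_mul]
  have h2 : ∀ v : Fin n → ℝ, g (P *ᵥ v) =
      cexp (-∑ i, ((Real.pi * t : ℝ) : ℂ) * (v i : ℂ) ^ 2 +
        ∑ i, (-2 * Real.pi * I * ((R *ᵥ castV y) i : ℂ)) * v i) := by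
    intro v
    have e1 : R *ᵥ (P *ᵥ v) = v := by rw [mulVec_mulVec, hRP, one_mulVec]
    have e2 : ∑ i, (((B *ᵥ y) i : ℤ) : ℂ) * ((P *ᵥ v) i : ℂ) = ∑ i, ((R *ᵥ castV y) i : ℂ) * (v i : ℂ) := by
      have : castV (B *ᵥ y) ⬝ᵥ (P *ᵥ v) = (R *ᵥ castV y) ⬝ᵥ v := by
        rw [castV_mulVec, dotProduct_mulVec, ← mulVec_transpose, hPs, mulVec_mulVec, ← hR,
          ← Matrix.mul_assoc, hPR, Matrix.one_mul]
      have := congrArg (fun r : ℝ => (r : ℂ)) this
      simpa [dotProduct, castV] using this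
    simp only [hg, hf, e1, sqs, ← Complex.exp_add]
    congr 1
    rw [e2, Finset.mul_sum, add_comm]
    congr 1
    · push_cast; rw [Finset.mul_sum, ← Finset.sum_neg_distrib]
      exact Finset.sum_congr rfl fun i _ => by ring
    · exact Finset.sum_congr rfl fun i _ => by ring
  have hpt : ∀ _i : Fin n, 0 < ((Real.pi * t : ℝ) : ℂ).re := fun _ => by
    rw [ofReal_re]; positivity
  show ∫ x, g x = _
  rw [h1, integral_congr_ae (Filter.Eventually.of_forall h2),
    GaussianFourier.integral_cexp_neg_sum_mul_add hpt, Finset.prod_mul_distrib]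
  have ht0 : (t : ℂ) ≠ 0 := ofReal_ne_zero.mpr ht.ne'
  have hpi : (Real.pi : ℂ) ≠ 0 := ofReal_ne_zero.mpr Real.pi_ne_zero
  have hA : ∏ _i : Fin n, ((Real.pi : ℂ) / ((Real.pi * t : ℝ) : ℂ)) ^ (1 / 2 : ℂ) = (1 / (t : ℂ)) ^ k := by
    rw [Finset.prod_const, Finset.card_univ, Fintype.card_fin, hn, pow_mul, ← cpow_nat_mul]
    norm_num
    rw [div_mul_cancel_left₀ hpi, inv_pow]
  have hB : ∏ i : Fin n, cexp ((-2 * Real.pi * I * ((R *ᵥ castV y) i : ℂ)) ^ 2 / (4 * ((Real.pi * t : ℝ) : ℂ))) =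
      cexp (Real.pi * I * ((1 / t : ℝ) * I) * ((y ⬝ᵥ (B *ᵥ y) : ℤ) : ℂ)) := by
    rw [← Complex.exp_sum]
    congr 1
    rw [← ofReal_intCast, form_eq_sqs hs hR]
    simp only [sqs]
    push_cast
    rw [Finset.mul_sum]
    refine Finset.sum_congr rfl fun i _ => ?_
    field_simp
    ring
  rw [hA, hB]
  ring

lemma mulVec_bij {B : Matrix (Fin n) (Fin n) ℤ} (h : B.det = 1) :
    Function.Bijective (fun y : Fin n → ℤ => B *ᵥ y) := by
  have h1 : B.adjugate * B = 1 := by rw [adjugate_mul, h, one_smul]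
  have h2 : B * B.adjugate = 1 := by rw [mul_adjugate, h, one_smul]
  refine Function.bijective_iff_has_inverse.mpr ⟨fun y => B.adjugate *ᵥ y, fun y => ?_, fun y => ?_⟩ <;>
    simp [mulVec_mulVec, h1, h2]

/-- The inversion formula on the imaginary axis. -/
theorem theta_inv_axis {k : ℕ} (hn : n = 2 * k) {B : Matrix (Fin n) (Fin n) ℤ} (h : Unimodular B) :
    ∃ C : ℂ, ∀ t : ℝ, 0 < t → theta B (t * I) = C * (1 / (t : ℂ)) ^ k * theta B ((1 / t : ℝ) * I) := by
  classical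
  obtain ⟨R, hs, hR, hd⟩ := exists_root h
  obtain ⟨c, hc, hb⟩ := sqs_lower hd
  set P := R⁻¹ with hP
  have hRP : R * P = 1 := mul_nonsing_inv R (Ne.isUnit hd)
  have hPR : P * R = 1 := nonsing_inv_mul R (Ne.isUnit hd)
  have hPd : P.det ≠ 0 := fun h0 => by simpa [h0] using congrArg Matrix.det hRP
  have hPs : Pᵀ = P := by rw [hP, transpose_nonsing_inv, hs]
  refine ⟨(|P.det| : ℝ), fun t ht => ?_⟩
  set f : (Fin n → ℝ) → ℂ := fun x => cexp ((-Real.pi * t * sqs (R *ᵥ x) : ℝ) : ℂ) with hf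
  have hfc : Continuous f := by simp only [hf, sqs]; fun_prop
  have hbd : ∀ x, ‖f x‖ ≤ Real.exp (-(Real.pi * t * c) * sqs x) := fun x => by
    simp only [hf, norm_exp, ofReal_re]
    apply Real.exp_le_exp.mpr
    nlinarith [mul_le_mul_of_nonneg_left (hb x) (mul_pos Real.pi_pos ht).le]
  have ha : 0 < Real.pi * t * c := by positivity
  have hint : ∀ y : Fin n → ℤ, fint f (B *ᵥ y) =
      ((|P.det| : ℝ) : ℂ) * (1 / (t : ℂ)) ^ k *
        cexp (Real.pi * I * ((1 / t : ℝ) * I) * ((y ⬝ᵥ (B *ᵥ y) : ℤ) : ℂ)) :=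
    fun y => fint_gauss hn hs hR hRP hPR hPd hPs ht y
  let e : (Fin n → ℤ) ≃ (Fin n → ℤ) := Equiv.ofBijective (fun y => B *ᵥ y) (mulVec_bij h.det)
  have hsum : Summable fun y : Fin n → ℤ =>
      cexp (Real.pi * I * ((1 / t : ℝ) * I) * ((y ⬝ᵥ (B *ᵥ y) : ℤ) : ℂ)) := by
    have him : (((1 / t : ℝ) : ℂ) * I).im = 1 / t := by
      rw [mul_im, ofReal_re, ofReal_im, I_im, I_re, mul_one, mul_zero, add_zero]
    have hb1 := summable_bound h (one_div_pos.mpr ht)
    apply Summable.of_norm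
    refine Summable.congr hb1 ?_
    intro y
    rw [norm_term, him]
  have hcomp : (fint f ∘ ⇑e) = fun y => ((|P.det| : ℝ) : ℂ) * (1 / (t : ℂ)) ^ k *
      cexp (Real.pi * I * ((1 / t : ℝ) * I) * ((y ⬝ᵥ (B *ᵥ y) : ℤ) : ℂ)) := funext fun y => hint y
  have hs' : Summable (fint f) := by
    rw [← e.summable_iff, hcomp]
    exact hsum.mul_left _
  have hp : ∑' x : Fin n → ℤ, f (castV x) = ∑' y : Fin n → ℤ, (fint f ∘ ⇑e) y :=
    (poisson ha hfc hbd hs').trans (e.tsum_eq (fint f)).symm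
  rw [hcomp, tsum_mul_left] at hp
  have hl : theta B (t * I) = ∑' x : Fin n → ℤ, f (castV x) := by
    unfold theta
    refine tsum_congr fun x => ?_
    simp only [hf]
    rw [← form_eq_sqs hs hR]
    congr 1
    push_cast
    linear_combination ((Real.pi : ℂ) * t * ((x ⬝ᵥ (B *ᵥ x) : ℤ) : ℂ)) * I_sq
  rw [hl, hp]
  unfold theta
  with_reducible rfl

/-- The inversion formula. -/
theorem theta_inv {k : ℕ} (hn : n = 2 * k) {B : Matrix (Fin n) (Fin n) ℤ} (h : Unimodular B) (τ : ℂ)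
    (hτ : 0 < τ.im) : theta B (-1 / τ) = (τ / I) ^ k * theta B τ := by
  obtain ⟨C, hC⟩ := theta_inv_axis hn h
  have hC1 : C = 1 := by
    have h1 := hC 1 one_pos
    obtain ⟨he, hp⟩ := theta_pos_axis h one_pos
    have hne : theta B (((1 : ℝ) : ℂ) * I) ≠ 0 := by rw [he]; exact ofReal_ne_zero.mpr hp.ne'
    simp only [div_one, one_pow, mul_one, ofReal_one, one_mul] at h1 hne
    exact mul_right_cancel₀ hne (by rw [one_mul]; exact h1.symm)
  set U := {z : ℂ | 0 < z.im}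
  have hUo : IsOpen U := isOpen_lt continuous_const Complex.continuous_im
  have hmapsto : Set.MapsTo (fun z : ℂ => -1 / z) U U := fun z hz => by
    have hz' : 0 < z.im := hz
    have : 0 < Complex.normSq z := normSq_pos.mpr fun h0 => by simp [h0] at hz'
    show 0 < (-1 / z).im
    simp only [div_im, neg_re, one_re, neg_im, one_im]
    have := div_pos hz' this
    ring_nf at this ⊢; linarith
  have hd1 : DifferentiableOn ℂ (fun z => theta B (-1 / z)) U :=
    (differentiableOn_theta h).comp (DifferentiableOn.div (differentiableOn_const _) differentiableOn_id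
      fun z hz h0 => by simp [show z = 0 from h0, U] at hz) hmapsto
  have hd2 : DifferentiableOn ℂ (fun z => (z / I) ^ k * theta B z) U :=
    ((differentiableOn_id.div_const _).pow k).mul (differentiableOn_theta h)
  refine AnalyticOnNhd.eqOn_of_preconnected_of_frequently_eq (z₀ := I) (hd1.analyticOnNhd hUo)
    (hd2.analyticOnNhd hUo) (convex_halfSpace_im_gt 0).isPreconnected (by simp [U]) ?_ hτ
  have hseq : Filter.Tendsto (fun m : ℕ => ((1 + 1 / ((m : ℝ) + 1) : ℝ) : ℂ) * I) Filter.atTop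
      (nhdsWithin I {I}ᶜ) := by
    refine tendsto_nhdsWithin_of_tendsto_nhds_of_eventually_within _ ?_ (Filter.Eventually.of_forall fun m => ?_)
    · have h1 : Filter.Tendsto (fun m : ℕ => (1 + 1 / ((m : ℝ) + 1) : ℝ)) Filter.atTop (nhds 1) := by
        simpa using (tendsto_one_div_add_atTop_nhds_zero_nat (𝕜 := ℝ)).const_add 1
      simpa using ((continuous_ofReal.tendsto 1).comp h1).mul_const I
    · intro h0
      have : ((1 + 1 / ((m : ℝ) + 1) : ℝ)) = 1 := by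
        have h1 := congrArg Complex.im (h0 : _ = I)
        simpa only [mul_im, ofReal_re, I_im, mul_one, ofReal_im, I_re, mul_zero, add_zero] using h1
      have : (0 : ℝ) < 1 / ((m : ℝ) + 1) := by positivity
      linarith
  refine hseq.frequently (Filter.Eventually.frequently (Filter.Eventually.of_forall fun m => ?_))
  set t : ℝ := 1 + 1 / ((m : ℝ) + 1)
  have ht : 0 < t := by positivity
  show theta B (-1 / ((t : ℂ) * I)) = ((t : ℂ) * I / I) ^ k * theta B ((t : ℂ) * I)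
  have e : -1 / ((t : ℂ) * I) = ((1 / t : ℝ) : ℂ) * I := by
    have : (t : ℂ) ≠ 0 := ofReal_ne_zero.mpr ht.ne'
    push_cast; field_simp; rw [I_sq]
  rw [e, mul_div_cancel_right₀ _ I_ne_zero, hC t ht, hC1, one_mul, ← mul_assoc, ← mul_pow,
    mul_one_div_cancel (ofReal_ne_zero.mpr ht.ne'), one_pow, one_mul]

end CfsgLib.LatticeTheta
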